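-- Team project OHYP (S5992), package [ODDOMEGA] (helper97):
-- isometries of odd order lie in the commutator subgroup of the isometry group.
import Mathlib
import Cfsg.Agent.Lib.Helper23.OHyp.Defs
import Cfsg.Agent.Lib.Helper44.SiegelOmega
import Cfsg.Agent.Lib.Helper43.OMinusBal.Group1

set_option autoImplicit false

namespace Cfsg.Agent.Lib.Helper97.OHyp

open Cfsg.Agent.Lib.Helper23.OHyp

universe u

/-- [ODDOMEGA] -/
theorem pkgOddOmega : PkgOddOmega.{u} := by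
  intro F _ _ ι _ _ Q hQ h2 x hx hodd
  obtain ⟨Q', hQ', hnd⟩ := Cfsg.Agent.Lib.Helper44.exists_quadraticForm_of_geo hQ
  subst hQ'
  have hpow : (⟨x, hx⟩ : ↥(Cfsg.isometryGroup F ⇑Q')) ^ orderOf x = 1 := by
    apply Subtype.ext
    rw [Subgroup.coe_pow]
    exact pow_orderOf_eq_one x
  have hmem := Cfsg.Agent.Lib.Helper43.OMinusBal.mem_omega_of_pow h2 Q' hnd ⟨x, hx⟩
    (orderOf x) hodd hpow
  exact ⟨⟨x, hx⟩, hmem, rfl⟩

end Cfsg.Agent.Lib.Helper97.OHyp
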