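-- Team project OHYP (S5992), package [SPLIT] (helper97):
-- the fixed space and the moved space of an isometry of order prime to the characteristic
-- are orthogonal complements, and every invariant nondegenerate subspace splits accordingly.
import Mathlib
import Cfsg.Agent.Lib.Helper23.OHyp.Defs

set_option autoImplicit false

namespace Cfsg.Agent.Lib.Helper97.OHyp

open Cfsg.Agent.Lib.Helper23.OHyp Matrix

universe u

section avg

variable {F : Type u} [Field F] {V : Type*} [AddCommGroup V] [Module F V]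

/-- The averaging operator `(1/r) Σ_{t<r} T^t`. -/
noncomputable def avg (T : V →ₗ[F] V) (r : ℕ) : V →ₗ[F] V :=
  ((r : F)⁻¹) • ∑ t ∈ Finset.range r, T ^ t

theorem pow_apply_fix (T : V →ₗ[F] V) {v : V} (hv : T v = v) (t : ℕ) : (T ^ t) v = v := by
  induction t with
  | zero => simp
  | succ n ih => rw [pow_succ, Module.End.mul_apply, hv, ih]

theorem avg_fix (T : V →ₗ[F] V) (r : ℕ) (hr : (r : F) ≠ 0) {v : V} (hv : T v = v) :
    avg T r v = v := by
  unfold avg
  rw [LinearMap.smul_apply, LinearMap.sum_apply]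
  rw [Finset.sum_congr rfl (fun t _ => pow_apply_fix T hv t)]
  rw [Finset.sum_const, Finset.card_range, ← Nat.cast_smul_eq_nsmul F, smul_smul,
    inv_mul_cancel₀ hr, one_smul]

theorem sum_shift (T : V →ₗ[F] V) (r : ℕ) (hT : T ^ r = 1) (v : V) :
    ∑ t ∈ Finset.range r, (T ^ (t + 1)) v = ∑ t ∈ Finset.range r, (T ^ t) v := by
  have h2 := Finset.sum_range_succ' (fun t => (T ^ t) v) r
  have h3 := Finset.sum_range_succ (fun t => (T ^ t) v) r
  rw [h3] at h2
  simp only [hT, pow_zero] at h2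
  exact (add_right_cancel h2).symm

theorem T_avg (T : V →ₗ[F] V) (r : ℕ) (hT : T ^ r = 1) (v : V) :
    T (avg T r v) = avg T r v := by
  unfold avg
  rw [LinearMap.smul_apply, map_smul, LinearMap.sum_apply, map_sum]
  congr 1
  have h1 : ∀ t, T ((T ^ t) v) = (T ^ (t + 1)) v := fun t => by
    rw [pow_succ', Module.End.mul_apply]
  simp_rw [h1]
  exact sum_shift T r hT v

theorem avg_T (T : V →ₗ[F] V) (r : ℕ) (hT : T ^ r = 1) (v : V) :
    avg T r (T v) = avg T r v := by
  unfold avg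
  rw [LinearMap.smul_apply, LinearMap.smul_apply, LinearMap.sum_apply, LinearMap.sum_apply]
  congr 1
  have h1 : ∀ t, (T ^ t) (T v) = (T ^ (t + 1)) v := fun t => by
    rw [pow_succ, Module.End.mul_apply]
  simp_rw [h1]
  exact sum_shift T r hT v

theorem pow_sub_self_mem (T : V →ₗ[F] V) (t : ℕ) (v : V) :
    (T ^ t) v - v ∈ LinearMap.range (T - 1) := by
  induction t with
  | zero => simp
  | succ n ih =>
    have h : (T ^ (n + 1)) v - v = (T - 1) ((T ^ n) v) + ((T ^ n) v - v) := by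
      rw [pow_succ', Module.End.mul_apply, LinearMap.sub_apply, Module.End.one_apply]
      abel
    rw [h]
    exact Submodule.add_mem _ (LinearMap.mem_range_self _ _) ih

theorem sub_avg_mem (T : V →ₗ[F] V) (r : ℕ) (hr : (r : F) ≠ 0) (v : V) :
    v - avg T r v ∈ LinearMap.range (T - 1) := by
  have h : v - avg T r v = -((r : F)⁻¹ • ∑ t ∈ Finset.range r, ((T ^ t) v - v)) := by
    unfold avg
    rw [LinearMap.smul_apply, LinearMap.sum_apply, Finset.sum_sub_distrib, Finset.sum_const,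
      Finset.card_range, smul_sub, ← Nat.cast_smul_eq_nsmul F, smul_smul, inv_mul_cancel₀ hr,
      one_smul]
    abel
  rw [h]
  exact Submodule.neg_mem _ (Submodule.smul_mem _ _
    (Submodule.sum_mem _ (fun t _ => pow_sub_self_mem T t v)))

theorem avg_mem (T : V →ₗ[F] V) (r : ℕ) (W : Submodule F V) (hW : ∀ w ∈ W, T w ∈ W) {w : V}
    (hw : w ∈ W) : avg T r w ∈ W := by
  have hp : ∀ t : ℕ, (T ^ t) w ∈ W := by
    intro t
    induction t with
    | zero => simpa using hw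
    | succ n ih =>
      rw [pow_succ', Module.End.mul_apply]
      exact hW _ ih
  unfold avg
  rw [LinearMap.smul_apply, LinearMap.sum_apply]
  exact W.smul_mem _ (W.sum_mem fun t _ => hp t)

end avg

section main

variable {F : Type u} [Field F] {ι : Type} [Fintype ι] [DecidableEq ι]

theorem toLin'_pow_eq (x : Matrix ι ι F) (t : ℕ) :
    (Matrix.toLin' x) ^ t = Matrix.toLin' (x ^ t) := by
  induction t with
  | zero => rw [pow_zero, pow_zero, Matrix.toLin'_one]; rfl
  | succ n ih => rw [pow_succ, pow_succ, ih, Matrix.toLin'_mul]; rfl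

theorem mem_fixSp {x : Matrix ι ι F} {v : ι → F} :
    v ∈ fixSp x ↔ Matrix.toLin' x v = v := by
  unfold fixSp
  rw [LinearMap.mem_ker, LinearMap.sub_apply, Module.End.one_apply, sub_eq_zero]

theorem mem_movSp {x : Matrix ι ι F} {v : ι → F} :
    v ∈ movSp x ↔ ∃ z, Matrix.toLin' x z - z = v := by
  unfold movSp
  rw [LinearMap.mem_range]
  simp only [LinearMap.sub_apply, Module.End.one_apply]

omit [Fintype ι] [DecidableEq ι] in
theorem polar_sub_left {Q : (ι → F) → F}
    (hB : Cfsg.Geo.IsBilinearForm (QuadraticMap.polar Q)) (a b c : ι → F) :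
    QuadraticMap.polar Q (a - b) c = QuadraticMap.polar Q a c - QuadraticMap.polar Q b c := by
  have h := hB.add_left (a - b) b c
  rw [sub_add_cancel] at h
  rw [h]
  ring

omit [Fintype ι] [DecidableEq ι] in
theorem polar_sub_right {Q : (ι → F) → F}
    (hB : Cfsg.Geo.IsBilinearForm (QuadraticMap.polar Q)) (a b c : ι → F) :
    QuadraticMap.polar Q a (b - c) = QuadraticMap.polar Q a b - QuadraticMap.polar Q a c := by
  have h := hB.add_right a (b - c) c
  rw [sub_add_cancel] at h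
  rw [h]
  ring

variable [Fintype F] {Q : (ι → F) → F} {r : ℕ} {x : Matrix ι ι F}

theorem toLin'_pow_r (hS : Std Q r x) : (Matrix.toLin' x) ^ r = 1 := by
  rw [toLin'_pow_eq, hS.pow, Matrix.toLin'_one]
  rfl

theorem polar_toLin' (hS : Std Q r x) (u v : ι → F) :
    QuadraticMap.polar Q (Matrix.toLin' x u) (Matrix.toLin' x v) = QuadraticMap.polar Q u v := by
  unfold QuadraticMap.polar
  rw [← map_add, Matrix.toLin'_apply, Matrix.toLin'_apply, Matrix.toLin'_apply, hS.isom,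
    hS.isom, hS.isom]

theorem perp_fix_mov (hS : Std Q r x) : Perp Q (fixSp x) (movSp x) := by
  intro u hu v hv
  obtain ⟨w, rfl⟩ := mem_movSp.mp hv
  rw [mem_fixSp] at hu
  have h := polar_toLin' hS u w
  rw [hu] at h
  rw [polar_sub_right hS.nondeg.polar_bilinear, h, sub_self]

theorem fix_inf_mov (hS : Std Q r x) : fixSp x ⊓ movSp x = ⊥ := by
  rw [Submodule.eq_bot_iff]
  intro v hv
  obtain ⟨hvC, hvN⟩ := Submodule.mem_inf.mp hv
  rw [mem_fixSp] at hvC
  obtain ⟨z, rfl⟩ := mem_movSp.mp hvN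
  have h1 := avg_fix (Matrix.toLin' x) r hS.ne hvC
  rw [map_sub, avg_T _ _ (toLin'_pow_r hS), sub_self] at h1
  exact h1.symm

omit [Fintype F] in
theorem inv_movSp (x : Matrix ι ι F) : Inv x (movSp x) := by
  rintro _ ⟨w, hw, rfl⟩
  obtain ⟨z, rfl⟩ := mem_movSp.mp hw
  exact mem_movSp.mpr ⟨Matrix.toLin' x z, by rw [map_sub]⟩

theorem split_W (hS : Std Q r x) (W : Submodule F (ι → F)) (hInv : Inv x W) (hNd : Nd Q W) :
    Nd Q (W ⊓ fixSp x) ∧ Nd Q (W ⊓ movSp x) ∧ Inv x (W ⊓ movSp x) ∧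
      (W ⊓ fixSp x) ⊔ (W ⊓ movSp x) = W ∧
      Module.finrank F W = Module.finrank F ↥(W ⊓ fixSp x) + Module.finrank F ↥(W ⊓ movSp x) := by
  have hTr : (Matrix.toLin' x) ^ r = 1 := toLin'_pow_r hS
  have hB := hS.nondeg.polar_bilinear
  have hWT : ∀ w ∈ W, Matrix.toLin' x w ∈ W := fun w hw => hInv (Submodule.mem_map_of_mem hw)
  have hperp := perp_fix_mov hS
  have hE1 : ∀ w ∈ W, avg (Matrix.toLin' x) r w ∈ W ⊓ fixSp x := fun w hw =>
    Submodule.mem_inf.mpr ⟨avg_mem _ r W hWT hw, mem_fixSp.mpr (T_avg _ r hTr w)⟩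
  have hE2 : ∀ w ∈ W, w - avg (Matrix.toLin' x) r w ∈ W ⊓ movSp x := fun w hw =>
    Submodule.mem_inf.mpr ⟨W.sub_mem hw (avg_mem _ r W hWT hw), sub_avg_mem _ r hS.ne w⟩
  have hsup : (W ⊓ fixSp x) ⊔ (W ⊓ movSp x) = W := by
    apply le_antisymm
    · exact sup_le inf_le_left inf_le_left
    · intro w hw
      rw [Submodule.mem_sup]
      exact ⟨_, hE1 w hw, _, hE2 w hw, by abel⟩
  have hinf : (W ⊓ fixSp x) ⊓ (W ⊓ movSp x) = ⊥ :=
    le_bot_iff.mp ((inf_le_inf inf_le_right inf_le_right).trans (fix_inf_mov hS).le)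
  refine ⟨?_, ?_, ?_, hsup, ?_⟩
  · intro w hw hw0
    obtain ⟨hwW, hwC⟩ := Submodule.mem_inf.mp hw
    obtain ⟨⟨y, hy, hy0⟩, -⟩ := hNd w hwW hw0
    have key : QuadraticMap.polar Q (avg (Matrix.toLin' x) r y) w ≠ 0 := by
      have h1 : QuadraticMap.polar Q (y - avg (Matrix.toLin' x) r y) w = 0 := by
        rw [QuadraticMap.polar_comm]
        exact hperp w hwC _ (Submodule.mem_inf.mp (hE2 y hy)).2
      rw [polar_sub_left hB] at h1
      rw [← sub_eq_zero.mp h1]
      exact hy0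
    exact ⟨⟨_, hE1 y hy, key⟩, ⟨_, hE1 y hy, by rw [QuadraticMap.polar_comm]; exact key⟩⟩
  · intro w hw hw0
    obtain ⟨hwW, hwN⟩ := Submodule.mem_inf.mp hw
    obtain ⟨⟨y, hy, hy0⟩, -⟩ := hNd w hwW hw0
    have key : QuadraticMap.polar Q (y - avg (Matrix.toLin' x) r y) w ≠ 0 := by
      have h1 : QuadraticMap.polar Q (avg (Matrix.toLin' x) r y) w = 0 :=
        hperp _ (Submodule.mem_inf.mp (hE1 y hy)).2 w hwN
      rw [polar_sub_left hB, h1, sub_zero]
      exact hy0
    exact ⟨⟨_, hE2 y hy, key⟩, ⟨_, hE2 y hy, by rw [QuadraticMap.polar_comm]; exact key⟩⟩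
  · rintro _ ⟨w, hw, rfl⟩
    obtain ⟨hwW, hwN⟩ := Submodule.mem_inf.mp hw
    exact Submodule.mem_inf.mpr ⟨hWT w hwW, inv_movSp x (Submodule.mem_map_of_mem hwN)⟩
  · have h := Submodule.finrank_sup_add_finrank_inf_eq (W ⊓ fixSp x) (W ⊓ movSp x)
    rw [hinf, finrank_bot, add_zero, hsup] at h
    exact h

/-- [SPLIT] -/
theorem pkgSplit : PkgSplit.{u} := by
  intro F _ _ ι _ _ Q r x hS
  have hTop := split_W hS ⊤ (fun _ _ => Submodule.mem_top) (by
    intro w _ hw0
    obtain ⟨⟨y, hy⟩, ⟨z, hz⟩⟩ := hS.nondeg.nondegenerate w hw0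
    exact ⟨⟨y, Submodule.mem_top, hy⟩, ⟨z, Submodule.mem_top, hz⟩⟩)
  simp only [top_inf_eq] at hTop
  obtain ⟨h1, h2, -, h4, -⟩ := hTop
  exact ⟨h1, h2, perp_fix_mov hS, IsCompl.of_eq (fix_inf_mov hS) h4, inv_movSp x,
    fun W hInv hNd => split_W hS W hInv hNd⟩

end main

end Cfsg.Agent.Lib.Helper97.OHyp
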